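import Mathlib
import Cfsg.Agent.Schreier.BNSch
import Cfsg.Agent.S0308

/-!
# Normal `2`-subgroups of a group with a split (B,N)-pair of odd characteristic (helper298)

`G` finite with a (B,N)-pair, `U` a normal Sylow `p`-subgroup of `B`, `B = U (B ∩ N)`, `p` odd, `Q` a normal
`2`-subgroup of `G` with `C_U(Q) = 1`: then `G = B Q`.
-/

set_option autoImplicit false
set_option linter.unusedSectionVars false

namespace Cfsg.Agent.H298.EO

open Cfsg Subgroup Cfsg.Agent.Schreier.BNSch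

variable {G : Type*} [Group G] (P : Cfsg.BNPair G) {U : Subgroup G}

theorem mem_of_mem_par {J : Set G} (hJ : J ⊆ P.S) {s : G} (hs : s ∈ P.S) (h : s ∈ P.parabolic J) : s ∈ J := by
  have h1 : P.parabolic {s} ≤ P.parabolic J :=
    sup_le (B_le_parabolic P J) ((Subgroup.closure_le _).2 (Set.singleton_subset_iff.2 h))
  have h2 := (parabolic_le_iff P (Set.singleton_subset_iff.2 hs) hJ).1 h1
  exact h2 rfl

/-- the cosets in `B n B` -/
def O (n : G) : Set (G ⧸ P.B) := {x | ∃ b ∈ P.B, x = ((b * n : G) : G ⧸ P.B)}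

theorem card_O_le [Finite G] (hc : ∀ b ∈ P.B, ∃ u ∈ U, ∃ t ∈ P.B ⊓ P.N, b = u * t) {n : G} (hn : n ∈ P.N) :
    Nat.card (O P n) ≤ Nat.card U := by
  have hex : ∀ x : O P n, ∃ u : U, ((((u : G) * n : G)) : G ⧸ P.B) = x := by
    rintro ⟨x, b, hb, rfl⟩
    obtain ⟨u, hu, t, ht, rfl⟩ := hc b hb
    refine ⟨⟨u, hu⟩, ?_⟩
    change ((u * n : G) : G ⧸ P.B) = ((u * t * n : G) : G ⧸ P.B)
    rw [QuotientGroup.eq]
    have h1 := P.conj_mem n⁻¹ (inv_mem hn) t ht
    rw [inv_inv] at h1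
    have e : (u * n)⁻¹ * (u * t * n) = n⁻¹ * t * n := by group
    rw [e]; exact h1
  choose f hf using hex
  have hinj : Function.Injective f := by
    intro x y hxy
    apply Subtype.ext
    rw [← hf x, ← hf y, hxy]
  exact Nat.card_le_card_of_injective f hinj

/-- the stabiliser in `U` of the coset `s B` -/
def Vs (U : Subgroup G) (s : G) : Subgroup G := U ⊓ P.B.comap (MulAut.conj s⁻¹).toMonoidHom

theorem mem_Vs {s u : G} : u ∈ Vs P U s ↔ u ∈ U ∧ s⁻¹ * u * s ∈ P.B := by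
  unfold Vs
  rw [mem_inf, mem_comap]
  have e : (MulAut.conj s⁻¹).toMonoidHom u = s⁻¹ * u * s := by simp
  rw [e]

theorem exists_notMem_Vs [Finite G] (_hUB : U ≤ P.B) (hc : ∀ b ∈ P.B, ∃ u ∈ U, ∃ t ∈ P.B ⊓ P.N, b = u * t)
    {s : G} (hs : s ∈ P.S) : ∃ u ∈ U, u ∉ Vs P U s := by
  by_contra hcon
  push Not at hcon
  have hsN := P.subset hs
  have h1 : ∀ b ∈ P.B, s⁻¹ * b * s ∈ P.B := by
    intro b hb
    obtain ⟨u, hu, t, ht, rfl⟩ := hc b hb
    have h2 := ((mem_Vs P).1 (hcon u hu)).2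
    have h3 := P.conj_mem s⁻¹ (inv_mem hsN) t ht
    rw [inv_inv] at h3
    have e : s⁻¹ * (u * t) * s = (s⁻¹ * u * s) * (s⁻¹ * t * s) := by group
    rw [e]; exact mul_mem h2 h3
  -- `s⁻¹ B s = B`
  have h2 : P.B.map (MulAut.conj s⁻¹).toMonoidHom = P.B := by
    apply Subgroup.eq_of_le_of_card_ge
    · rintro _ ⟨b, hb, rfl⟩
      have := h1 b hb
      simpa using this
    · rw [card_map_of_injective (MulAut.conj s⁻¹).injective]
  have h3 : ∀ b ∈ P.B, s * b * s⁻¹ ∈ P.B := by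
    intro b hb
    rw [← h2] at hb
    obtain ⟨c, hc', hcb⟩ := hb
    have e : (MulAut.conj s⁻¹).toMonoidHom c = s⁻¹ * c * s := by simp
    rw [e] at hcb
    rw [← hcb]
    have e2 : s * (s⁻¹ * c * s) * s⁻¹ = c := by group
    rw [e2]; exact hc'
  apply P.conj_ne s hs
  ext x
  constructor
  · rintro ⟨b, hb, rfl⟩
    have e : s * b * s = (s * b * s⁻¹) * (s * s) := by group
    change s * b * s ∈ P.B
    rw [e]
    exact mul_mem (h3 b hb) (P.sq_mem s hs)
  · intro hx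
    refine ⟨s⁻¹ * x * s⁻¹, ?_, ?_⟩
    · have e : s⁻¹ * x * s⁻¹ = (s⁻¹ * x * s) * (s * s)⁻¹ := by group
      rw [SetLike.mem_coe, e]
      exact mul_mem (h1 x hx) (inv_mem (P.sq_mem s hs))
    · change s * (s⁻¹ * x * s⁻¹) * s = x
      group

section P

variable {p : ℕ} [hp : Fact p.Prime] [Finite G]

theorem le_relIndex_Vs (hU : IsPGroup p U) (hUB : U ≤ P.B)
    (hc : ∀ b ∈ P.B, ∃ u ∈ U, ∃ t ∈ P.B ⊓ P.N, b = u * t) {s : G} (hs : s ∈ P.S) :
    ∃ a, 1 ≤ a ∧ (Vs P U s).relIndex U = p ^ a := by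
  obtain ⟨u, hu, huV⟩ := exists_notMem_Vs P hUB hc hs
  have h1 : (Vs P U s).relIndex U ∣ Nat.card U := by
    unfold Subgroup.relIndex
    exact Subgroup.index_dvd_card _
  obtain ⟨k, hk⟩ := (IsPGroup.iff_card).1 hU
  rw [hk] at h1
  obtain ⟨a, -, ha⟩ := (Nat.dvd_prime_pow hp.out).1 h1
  refine ⟨a, ?_, ha⟩
  by_contra h0
  have h0 : a = 0 := by omega
  rw [h0, pow_zero, relIndex_eq_one] at ha
  exact huV (ha hu)

/-- **Growth.** -/
theorem card_O_mul (hU : IsPGroup p U) (hUB : U ≤ P.B)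
    (hc : ∀ b ∈ P.B, ∃ u ∈ U, ∃ t ∈ P.B ⊓ P.N, b = u * t) {J : Set G} (hJ : J ⊆ P.S) {s : G} (hs : s ∈ P.S)
    (hsJ : s ∉ J) {n : G} (hn : n ∈ P.N) (hnJ : n ∈ P.parabolic J) :
    p * Nat.card (O P n) ≤ Nat.card (O P (s * n)) := by
  obtain ⟨a, ha, hidx⟩ := le_relIndex_Vs P hU hUB hc hs
  have hpa : p ≤ (Vs P U s).relIndex U := by
    rw [hidx]
    calc p = p ^ 1 := (pow_one p).symm
      _ ≤ p ^ a := Nat.pow_le_pow_right hp.out.pos ha
  have hB : ∀ b ∈ P.B, b ∈ P.parabolic J := fun b hb => B_le_parabolic P J hb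
  have hout : ∀ b ∈ P.B, s * b * n ∉ P.parabolic J := by
    intro b hb h
    apply hsJ
    apply mem_of_mem_par P hJ hs
    have e : s = s * b * n * n⁻¹ * b⁻¹ := by group
    rw [e]
    exact mul_mem (mul_mem h (inv_mem hnJ)) (inv_mem (hB b hb))
  have hin : ∀ b ∈ P.B, ∃ c ∈ P.B, ∃ d ∈ P.B, s * b * n = c * (s * n) * d := by
    intro b hb
    rcases P.mul_mem_union s hs n hn b hb with h | h
    · rw [DoubleCoset.mem_doubleCoset] at h
      obtain ⟨c, hc', d, hd, e⟩ := h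
      exact ⟨c, hc', d, hd, e⟩
    · exfalso
      rw [DoubleCoset.mem_doubleCoset] at h
      obtain ⟨c, hc', d, hd, e⟩ := h
      apply hout b hb
      rw [e]
      exact mul_mem (mul_mem (hB c hc') hnJ) (hB d hd)
  -- the injection
  let V' : Subgroup U := (Vs P U s).subgroupOf U
  have hmem : ∀ (u : U) (x : O P n), (((u : G) * s : G)) • (x : G ⧸ P.B) ∈ O P (s * n) := by
    rintro ⟨u, hu⟩ ⟨x, b, hb, rfl⟩
    obtain ⟨c, hc', d, hd, e⟩ := hin b hb
    refine ⟨u * c, mul_mem (hUB hu) hc', ?_⟩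
    change ((u * s * (b * n) : G) : G ⧸ P.B) = ((u * c * (s * n) : G) : G ⧸ P.B)
    rw [QuotientGroup.eq]
    have e2 : u * s * (b * n) = u * (c * (s * n) * d) := by rw [← e]; group
    have e3 : (u * s * (b * n))⁻¹ * (u * c * (s * n)) = d⁻¹ := by rw [e2]; group
    rw [e3]; exact inv_mem hd
  let f : (U ⧸ V') × O P n → O P (s * n) := fun cx => ⟨_, hmem cx.1.out cx.2⟩
  have hf : Function.Injective f := by
    rintro ⟨c, x⟩ ⟨c', x'⟩ h
    have h1 : (((c.out : G) * s : G)) • (x : G ⧸ P.B) = (((c'.out : G) * s : G)) • (x' : G ⧸ P.B) :=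
      congrArg Subtype.val h
    have h2 : ((s⁻¹ * ((c'.out : G)⁻¹ * c.out) * s : G)) • (x : G ⧸ P.B) = x' := by
      have e : (s⁻¹ * ((c'.out : G)⁻¹ * c.out) * s : G) = ((c'.out : G) * s)⁻¹ * ((c.out : G) * s) := by group
      rw [e, mul_smul, h1, inv_smul_smul]
    by_cases hy : s⁻¹ * ((c'.out : G)⁻¹ * c.out) * s ∈ P.B
    · have h3 : (c'.out)⁻¹ * c.out ∈ V' := by
        rw [mem_subgroupOf, mem_Vs]
        exact ⟨((c'.out)⁻¹ * c.out : U).2, hy⟩
      have h4 : c' = c := by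
        rw [← QuotientGroup.out_eq' c', ← QuotientGroup.out_eq' c, QuotientGroup.eq]
        exact h3
      subst h4
      have h5 : x = x' := by
        apply Subtype.ext
        exact smul_left_cancel _ h1
      rw [h5]
    · exfalso
      have hyp : s⁻¹ * ((c'.out : G)⁻¹ * c.out) * s ∈ P.parabolic {s} := by
        have hsp := mem_parabolic_self P s
        refine mul_mem (mul_mem (inv_mem hsp) (B_le_parabolic P _ (hUB ?_))) hsp
        exact mul_mem (inv_mem c'.out.2) c.out.2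
      rcases mem_parabolic_singleton P hs hyp with h3 | ⟨b1, hb1, b2, hb2, e⟩
      · exact hy h3
      · obtain ⟨b, hb, hx⟩ := x.2
        obtain ⟨b', hb', hx'⟩ := x'.2
        rw [e, hx, hx'] at h2
        change ((b1 * s * b2 * (b * n) : G) : G ⧸ P.B) = ((b' * n : G) : G ⧸ P.B) at h2
        rw [QuotientGroup.eq] at h2
        apply hout (b2 * b) (mul_mem hb2 hb)
        have e2 : s * (b2 * b) * n = b1⁻¹ * ((b' * n) * ((b1 * s * b2 * (b * n))⁻¹ * (b' * n))⁻¹) := by group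
        rw [e2]
        exact mul_mem (inv_mem (hB _ hb1)) (mul_mem (mul_mem (hB _ hb') hnJ) (inv_mem (hB _ h2)))
  have h1 := Nat.card_le_card_of_injective f hf
  rw [Nat.card_prod] at h1
  calc p * Nat.card (O P n) ≤ (Vs P U s).relIndex U * Nat.card (O P n) := Nat.mul_le_mul_right _ hpa
    _ = Nat.card (U ⧸ V') * Nat.card (O P n) := rfl
    _ ≤ _ := h1

theorem exists_O (hU : IsPGroup p U) (hUB : U ≤ P.B)
    (hc : ∀ b ∈ P.B, ∃ u ∈ U, ∃ t ∈ P.B ⊓ P.N, b = u * t) (J : Finset G) (hJ : (J : Set G) ⊆ P.S) :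
    ∃ n ∈ P.N, n ∈ P.parabolic J ∧ p ^ J.card ≤ Nat.card (O P n) := by
  classical
  induction J using Finset.induction_on with
  | empty =>
    refine ⟨1, one_mem _, one_mem _, ?_⟩
    rw [Finset.card_empty, pow_zero]
    have : Nonempty (O P (1 : G)) := ⟨⟨((1 * 1 : G) : G ⧸ P.B), 1, one_mem _, rfl⟩⟩
    exact Nat.card_pos
  | insert s J hs ih =>
    have hJ' : (J : Set G) ⊆ P.S := fun x hx => hJ (by rw [Finset.coe_insert]; exact Or.inr hx)
    have hsS : s ∈ P.S := hJ (by rw [Finset.coe_insert]; exact Or.inl rfl)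
    obtain ⟨n, hn, hnJ, hcard⟩ := ih hJ'
    refine ⟨s * n, mul_mem (P.subset hsS) hn, ?_, ?_⟩
    · refine mul_mem ?_ (parabolic_mono P (by rw [Finset.coe_insert]; exact Set.subset_insert _ _) hnJ)
      exact (le_sup_right : Subgroup.closure _ ≤ P.parabolic _)
        (Subgroup.subset_closure (by rw [Finset.coe_insert]; exact Or.inl rfl))
    · have h1 := card_O_mul P hU hUB hc hJ' hsS (fun h => hs (Finset.mem_coe.1 h)) hn hnJ
      rw [Finset.card_insert_of_notMem hs, pow_succ, mul_comm]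
      exact (Nat.mul_le_mul_left p hcard).trans h1

/-- **`|U| ≥ p ^ (rank)`.** -/
theorem pow_ncard_le (hU : IsPGroup p U) (hUB : U ≤ P.B)
    (hc : ∀ b ∈ P.B, ∃ u ∈ U, ∃ t ∈ P.B ⊓ P.N, b = u * t) : p ^ P.S.ncard ≤ Nat.card U := by
  have hfin : P.S.Finite := Set.toFinite _
  obtain ⟨n, hn, -, h⟩ := exists_O P hU hUB hc hfin.toFinset (by rw [Set.Finite.coe_toFinset])
  rw [← Set.ncard_eq_toFinset_card] at h
  exact h.trans (card_O_le P hc hn)

end P

section Main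

variable {p : ℕ} [hp : Fact p.Prime] [Finite G] {Q : Subgroup G}

/-- `1 + p ^ a = 2 ^ c` only for `a = 1`. -/
theorem eq_one_of_pow {p a c : ℕ} (hp2 : Odd p) (hp1 : 2 ≤ p) (ha : 1 ≤ a) (h : 1 + p ^ a = 2 ^ c) : a = 1 := by
  have hpa : 2 ≤ p ^ a := by
    calc 2 ≤ p := hp1
      _ = p ^ 1 := (pow_one p).symm
      _ ≤ p ^ a := Nat.pow_le_pow_right (by omega) ha
  have hc : 2 ≤ c := by
    by_contra hc
    have : c = 0 ∨ c = 1 := by omega
    rcases this with rfl | rfl <;> omega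
  obtain ⟨d, rfl⟩ : ∃ d, c = d + 2 := ⟨c - 2, by omega⟩
  rcases Nat.even_or_odd a with ⟨k, hk⟩ | ⟨k, hk⟩
  · exfalso
    -- `p ^ a = 1 mod 4`
    obtain ⟨j, hj⟩ := hp2.pow (n := k)
    have h1 : p ^ a = 4 * (j * j + j) + 1 := by
      rw [hk, pow_add, hj]; ring
    rw [h1, pow_add] at h
    omega
  · -- `p + 1 ∣ p ^ a + 1`, with an odd quotient
    have h1 : p + 1 ∣ p ^ a + 1 ^ a := Odd.nat_add_dvd_pow_add_pow p 1 ⟨k, hk⟩
    rw [one_pow, add_comm (p ^ a) 1, h] at h1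
    obtain ⟨e, -, he⟩ := (Nat.dvd_prime_pow Nat.prime_two).1 h1
    -- `p = 2 ^ e - 1`
    by_contra hne
    have ha3 : 3 ≤ a := by omega
    have hp3 : 3 ≤ p := by
      obtain ⟨j, hj⟩ := hp2; omega
    -- `(p ^ a + 1) = (p + 1) * m`, `m` odd
    have hkey : ∃ m, p ^ a + 1 = (p + 1) * m ∧ Odd m := by
      have : ∀ k : ℕ, ∃ m, p ^ (2 * k + 1) + 1 = (p + 1) * m ∧ Odd m := by
        intro k
        induction k with
        | zero => exact ⟨1, by ring, odd_one⟩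
        | succ k ih =>
          obtain ⟨m, hm, ho⟩ := ih
          -- `p ^ (2k+3) + 1 = p ^ 2 (p ^ (2k+1) + 1) - (p ^ 2 - 1)`
          have hp21 : 1 ≤ p ^ 2 := Nat.one_le_pow _ _ (by omega)
          have hm1 : 1 ≤ m := ho.pos
          refine ⟨p ^ 2 * m - (p - 1), ?_, ?_⟩
          · have hle : p - 1 ≤ p ^ 2 * m := by
              have h8 : p * 1 ≤ p * (p * m) := Nat.mul_le_mul_left p (Nat.mul_pos (by omega) hm1)
              have h9 : p ^ 2 * m = p * (p * m) := by ring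
              omega
            have h2 : (p + 1) * (p ^ 2 * m - (p - 1)) = (p + 1) * (p ^ 2 * m) - (p + 1) * (p - 1) :=
              Nat.mul_sub _ _ _
            have h3 : (p + 1) * (p ^ 2 * m) = p ^ 2 * (p ^ (2 * k + 1) + 1) := by rw [hm]; ring
            have h4 : (p + 1) * (p - 1) = p ^ 2 - 1 := by
              obtain ⟨j, rfl⟩ : ∃ j, p = j + 1 := ⟨p - 1, by omega⟩
              simp only [Nat.add_sub_cancel]
              have : (j + 1) ^ 2 = (j + 1 + 1) * j + 1 := by ring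
              omega
            rw [h2, h3, h4]
            have h5 : p ^ (2 * (k + 1) + 1) = p ^ 2 * p ^ (2 * k + 1) := by ring
            rw [h5, Nat.mul_add, mul_one]
            omega
          · have h6 : Odd (p ^ 2 * m) := (hp2.pow).mul ho
            have h7 : Even (p - 1) := by
              obtain ⟨j, hj⟩ := hp2
              exact ⟨j, by omega⟩
            have hle : p - 1 ≤ p ^ 2 * m := by
              have h8 : p * 1 ≤ p * (p * m) := Nat.mul_le_mul_left p (Nat.mul_pos (by omega) hm1)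
              have h9 : p ^ 2 * m = p * (p * m) := by ring
              omega
            exact Nat.Odd.sub_even hle h6 h7
      obtain ⟨m, hm, ho⟩ := this k
      exact ⟨m, by rw [hk]; exact hm, ho⟩
    obtain ⟨m, hm, ho⟩ := hkey
    have h2 : m ∣ 2 ^ (d + 2) := ⟨p + 1, by rw [← h, add_comm 1, hm]; ring⟩
    obtain ⟨f, -, hf⟩ := (Nat.dvd_prime_pow Nat.prime_two).1 h2
    have hf0 : f = 0 := by
      by_contra hf0
      rw [hf] at ho
      exact (Nat.not_even_iff_odd.2 ho) ((Nat.even_pow).2 ⟨even_two, hf0⟩)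
    rw [hf0, pow_zero] at hf
    rw [hf, mul_one] at hm
    have h3 : p ^ 3 ≤ p ^ a := Nat.pow_le_pow_right (by omega) ha3
    have h4 : p ^ 3 = p * p * p := by ring
    nlinarith

/-- elements of `U ∩ Q` -/
theorem eq_one_of_mem (hp2 : p ≠ 2) (hU : IsPGroup p U) (hQ : IsPGroup 2 Q) {x : G} (h1 : x ∈ U) (h2 : x ∈ Q) :
    x = 1 := by
  obtain ⟨a, ha⟩ := hU ⟨x, h1⟩
  obtain ⟨b, hb⟩ := hQ ⟨x, h2⟩
  have ha' : x ^ p ^ a = 1 := congrArg Subtype.val ha
  have hb' : x ^ 2 ^ b = 1 := congrArg Subtype.val hb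
  have hcop : Nat.Coprime (p ^ a) (2 ^ b) := by
    apply Nat.Coprime.pow
    exact (Nat.coprime_primes hp.out Nat.prime_two).2 hp2
  have h3 : orderOf x ∣ 1 := by
    rw [← hcop]
    exact Nat.dvd_gcd (orderOf_dvd_of_pow_eq_one ha') (orderOf_dvd_of_pow_eq_one hb')
  exact orderOf_eq_one_iff.1 (Nat.dvd_one.1 h3)

/-- the kernel of `U` on `P_s / B` -/
def Ks (U : Subgroup G) (s : G) : Subgroup G :=
  U ⊓ ((P.B.subgroupOf (P.parabolic {s})).normalCore).map (P.parabolic {s}).subtype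

theorem mem_Ks (hUB : U ≤ P.B) {s u : G} : u ∈ Ks P U s ↔ u ∈ U ∧ ∀ g ∈ P.parabolic {s}, g * u * g⁻¹ ∈ P.B := by
  unfold Ks
  rw [mem_inf]
  constructor
  · rintro ⟨hu, ⟨v, hv⟩, hvc, rfl⟩
    refine ⟨hu, fun g hg => ?_⟩
    exact hvc ⟨g, hg⟩
  · rintro ⟨hu, h⟩
    refine ⟨hu, ⟨u, B_le_parabolic P _ (hUB hu)⟩, fun g => ?_, rfl⟩
    exact h g g.2

theorem Ks_conj (hUB : U ≤ P.B) (hS : ∀ b ∈ P.B, (∃ n : ℕ, b ^ p ^ n = 1) → b ∈ U) (hU : IsPGroup p U)
    {s u g : G} (hu : u ∈ Ks P U s) (hg : g ∈ P.parabolic {s}) : g * u * g⁻¹ ∈ Ks P U s := by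
  rw [mem_Ks P hUB] at hu ⊢
  refine ⟨hS _ (hu.2 g hg) ?_, fun h hh => ?_⟩
  · obtain ⟨n, hn⟩ := hU ⟨u, hu.1⟩
    refine ⟨n, ?_⟩
    have hn' : u ^ p ^ n = 1 := congrArg Subtype.val hn
    rw [conj_pow, hn', mul_one, mul_inv_cancel]
  · have h1 := hu.2 (h * g) (mul_mem hh hg)
    have e : h * (g * u * g⁻¹) * h⁻¹ = h * g * u * (h * g)⁻¹ := by group
    rw [e]; exact h1

theorem Ks_comm (hp2 : p ≠ 2) (hUB : U ≤ P.B) (hS : ∀ b ∈ P.B, (∃ n : ℕ, b ^ p ^ n = 1) → b ∈ U)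
    (hU : IsPGroup p U) (hQ : IsPGroup 2 Q) [hQn : Q.Normal] {s u q : G} (hu : u ∈ Ks P U s) (hq : q ∈ Q)
    (hqs : q ∈ P.parabolic {s}) : u * q = q * u := by
  have h1 : u * (q * u⁻¹ * q⁻¹) ∈ U := by
    refine mul_mem hu.1 ?_
    have h2 := Ks_conj P hUB hS hU (inv_mem hu) hqs
    exact h2.1
  have h2 : u * (q * u⁻¹ * q⁻¹) ∈ Q := by
    have e : u * (q * u⁻¹ * q⁻¹) = (u * q * u⁻¹) * q⁻¹ := by group
    rw [e]
    exact mul_mem (hQn.conj_mem q hq u) (inv_mem hq)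
  have h3 := eq_one_of_mem hp2 hU hQ h1 h2
  calc u * q = (u * (q * u⁻¹ * q⁻¹)) * (q * u) := by group
    _ = q * u := by rw [h3, one_mul]

theorem Q_inf_B (hp2 : p ≠ 2) (hBU : ∀ b ∈ P.B, ∀ u ∈ U, b * u * b⁻¹ ∈ U)
    (hU : IsPGroup p U) (hQ : IsPGroup 2 Q) [hQn : Q.Normal] {u q : G} (hu : u ∈ U) (hq : q ∈ Q)
    (hqB : q ∈ P.B) : u * q = q * u := by
  have h1 : u * (q * u⁻¹ * q⁻¹) ∈ U := mul_mem hu (hBU q hqB _ (inv_mem hu))
  have h2 : u * (q * u⁻¹ * q⁻¹) ∈ Q := by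
    have e : u * (q * u⁻¹ * q⁻¹) = (u * q * u⁻¹) * q⁻¹ := by group
    rw [e]
    exact mul_mem (hQn.conj_mem q hq u) (inv_mem hq)
  have h3 := eq_one_of_mem hp2 hU hQ h1 h2
  calc u * q = (u * (q * u⁻¹ * q⁻¹)) * (q * u) := by group
    _ = q * u := by rw [h3, one_mul]

/-- the number of cosets `u s B` -/
theorem ncard_orbit (s : G) : Nat.card (MulAction.orbit U ((s : G) : G ⧸ P.B)) = (Vs P U s).relIndex U := by
  rw [Nat.card_coe_set_eq, ← MulAction.index_stabilizer]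
  congr 1
  ext u
  rw [MulAction.mem_stabilizer_iff, mem_subgroupOf, mem_Vs]
  change ((((u : G) * s : G)) : G ⧸ P.B) = _ ↔ _
  rw [eq_comm, QuotientGroup.eq]
  have e : s⁻¹ * (u * s) = s⁻¹ * u * s := by group
  rw [e]
  exact ⟨fun h => ⟨u.2, h⟩, fun h => h.2⟩

/-- **The index of `V_s` is `p`** if `P_s ≤ B Q`. -/
theorem relIndex_Vs (hp2 : p ≠ 2) (hUB : U ≤ P.B) (hU : IsPGroup p U) (hQ : IsPGroup 2 Q) [hQn : Q.Normal]
    (hc : ∀ b ∈ P.B, ∃ u ∈ U, ∃ t ∈ P.B ⊓ P.N, b = u * t) {s : G} (hs : s ∈ P.S)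
    (hle : P.parabolic {s} ≤ P.B ⊔ Q) : (Vs P U s).relIndex U = p := by
  obtain ⟨a, ha, hidx⟩ := le_relIndex_Vs P hU hUB hc hs
  -- the set `P_s / B`
  let Om : Set (G ⧸ P.B) := {x | ∃ g ∈ P.parabolic {s}, x = ((g : G) : G ⧸ P.B)}
  let R : Subgroup G := Q ⊓ P.parabolic {s}
  have hOm1 : Om = MulAction.orbit R ((1 : G) : G ⧸ P.B) := by
    ext x
    constructor
    · rintro ⟨g, hg, rfl⟩
      have h1 : g ∈ Q ⊔ P.B := by rw [sup_comm]; exact hle hg
      rw [Subgroup.mem_sup_of_normal_left] at h1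
      obtain ⟨q, hq, b, hb, rfl⟩ := h1
      refine ⟨⟨q, hq, ?_⟩, ?_⟩
      · have h2 := mul_mem hg (inv_mem (B_le_parabolic P {s} hb))
        rwa [mul_inv_cancel_right] at h2
      · change ((q * 1 : G) : G ⧸ P.B) = _
        rw [QuotientGroup.eq]
        have e : (q * 1)⁻¹ * (q * b) = b := by group
        rw [e]; exact hb
    · rintro ⟨r, rfl⟩
      refine ⟨r, r.2.2, ?_⟩
      change ((((r : G) * 1 : G)) : G ⧸ P.B) = _
      rw [mul_one]
  have hOm2 : Om = insert ((1 : G) : G ⧸ P.B) (MulAction.orbit U ((s : G) : G ⧸ P.B)) := by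
    ext x
    constructor
    · rintro ⟨g, hg, rfl⟩
      by_cases hgB : g ∈ P.B
      · left
        rw [QuotientGroup.eq, mul_one]
        exact inv_mem hgB
      · right
        obtain ⟨u, hu, b, hb, rfl⟩ := exists_of_mem_parabolic P hUB (fun b hb => by
          obtain ⟨u, hu, t, ht, rfl⟩ := hc b hb
          exact ⟨u, hu, by rw [inv_mul_cancel_left]; exact ht.2⟩) hs hg hgB
        refine ⟨⟨u, hu⟩, ?_⟩
        change ((u * s : G) : G ⧸ P.B) = _
        rw [QuotientGroup.eq]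
        have e : (u * s)⁻¹ * (u * s * b) = b := by group
        rw [e]; exact hb
    · rintro (rfl | ⟨u, rfl⟩)
      · exact ⟨1, one_mem _, rfl⟩
      · exact ⟨u * s, mul_mem (B_le_parabolic P _ (hUB u.2)) (mem_parabolic_self P s), rfl⟩
  have hnot : ((1 : G) : G ⧸ P.B) ∉ MulAction.orbit U ((s : G) : G ⧸ P.B) := by
    rintro ⟨u, hu⟩
    have hu' : ((((u : G) * s : G)) : G ⧸ P.B) = ((1 : G) : G ⧸ P.B) := hu
    rw [QuotientGroup.eq, mul_one, inv_mem_iff] at hu'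
    apply not_mem_B P hs
    have e : s = (u : G)⁻¹ * (u * s) := by group
    rw [e]
    exact mul_mem (inv_mem (hUB u.2)) hu'
  have h1 : Nat.card Om = 1 + p ^ a := by
    rw [← hidx, ← ncard_orbit P s, hOm2]
    have h2 := Set.ncard_insert_of_notMem hnot (Set.toFinite _)
    rw [← Nat.card_coe_set_eq, ← Nat.card_coe_set_eq] at h2
    omega
  have h2 : Nat.card Om ∣ Nat.card R := by
    rw [hOm1]
    refine ⟨Nat.card (MulAction.stabilizer R ((1 : G) : G ⧸ P.B)), ?_⟩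
    rw [Nat.card_congr (MulAction.orbitEquivQuotientStabilizer R ((1 : G) : G ⧸ P.B))]
    rw [mul_comm]
    exact Subgroup.card_eq_card_quotient_mul_card_subgroup _ |>.trans (mul_comm _ _)
  have hR : IsPGroup 2 R := hQ.to_le inf_le_left
  obtain ⟨k, hk⟩ := (IsPGroup.iff_card).1 hR
  rw [hk] at h2
  obtain ⟨c, -, hcc⟩ := (Nat.dvd_prime_pow Nat.prime_two).1 h2
  have h3 := eq_one_of_pow (hp.out.odd_of_ne_two hp2) hp.out.two_le ha (h1.symm.trans hcc)
  rw [hidx, h3, pow_one]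

theorem Vs_le_Ks (hp2 : p ≠ 2) (hUB : U ≤ P.B) (hU : IsPGroup p U) (hQ : IsPGroup 2 Q) [hQn : Q.Normal]
    (hc : ∀ b ∈ P.B, ∃ u ∈ U, ∃ t ∈ P.B ⊓ P.N, b = u * t) {s : G} (hs : s ∈ P.S)
    (hle : P.parabolic {s} ≤ P.B ⊔ Q) : Vs P U s ≤ Ks P U s := by
  have hidx := relIndex_Vs P hp2 hUB hU hQ hc hs hle
  have hn : ((Vs P U s).subgroupOf U).Normal := by
    apply Subgroup.normal_of_index_eq_minFac_card
    change (Vs P U s).relIndex U = _
    rw [hidx]
    obtain ⟨k, hk⟩ := (IsPGroup.iff_card).1 hU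
    have hk0 : k ≠ 0 := by
      rintro rfl
      rw [pow_zero] at hk
      have h1 : (Vs P U s).relIndex U ∣ Nat.card U := by
        unfold Subgroup.relIndex
        exact Subgroup.index_dvd_card _
      rw [hidx, hk] at h1
      exact hp.out.one_lt.ne' (Nat.dvd_one.1 h1)
    rw [hk, Nat.Prime.pow_minFac hp.out hk0]
  intro v hv
  rw [mem_Ks P hUB]
  refine ⟨hv.1, fun g hg => ?_⟩
  have hg' : g⁻¹ ∈ P.parabolic {s} := inv_mem hg
  by_cases hgB : g⁻¹ ∈ P.B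
  · exact mul_mem (mul_mem (inv_mem_iff.1 hgB) (hUB hv.1)) hgB
  · obtain ⟨u, hu, b, hb, e⟩ := exists_of_mem_parabolic P hUB (fun b hb => by
      obtain ⟨u, hu, t, ht, rfl⟩ := hc b hb
      exact ⟨u, hu, by rw [inv_mul_cancel_left]; exact ht.2⟩) hs hg' hgB
    have h1 : u⁻¹ * v * u ∈ Vs P U s := by
      have h2 := hn.conj_mem ⟨v, hv.1⟩ (mem_subgroupOf.2 hv) (⟨u, hu⟩ : U)⁻¹
      rw [mem_subgroupOf] at h2
      simpa using h2
    have h2 := ((mem_Vs P).1 h1).2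
    have e2 : g * v * g⁻¹ = b⁻¹ * (s⁻¹ * (u⁻¹ * v * u) * s) * b := by
      rw [e, ← inv_inv g, e]; group
    rw [e2]
    exact mul_mem (mul_mem (inv_mem hb) h2) hb

/-- **THEOREM.** -/
theorem sup_eq_top (hp2 : p ≠ 2) (hUB : U ≤ P.B) (hBU : ∀ b ∈ P.B, ∀ u ∈ U, b * u * b⁻¹ ∈ U)
    (hc : ∀ b ∈ P.B, ∃ u ∈ U, ∃ t ∈ P.B ⊓ P.N, b = u * t)
    (hS : ∀ b ∈ P.B, (∃ n : ℕ, b ^ p ^ n = 1) → b ∈ U) (hU : IsPGroup p U)
    (hQ : IsPGroup 2 Q) [hQn : Q.Normal] (hC : ∀ u ∈ U, (∀ q ∈ Q, u * q = q * u) → u = 1) : P.B ⊔ Q = ⊤ := by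
  classical
  obtain ⟨J, hJ, hBQ⟩ := Cfsg.Agent.S0311.result P (P.B ⊔ Q) le_sup_left
  have hle : ∀ s ∈ J, P.parabolic {s} ≤ P.B ⊔ Q := fun s hs => by
    rw [hBQ]; exact parabolic_mono P (Set.singleton_subset_iff.2 hs)
  have hfin : J.Finite := Set.toFinite _
  -- the intersection of the kernels
  let f : J → Subgroup U := fun s => (Ks P U s.1).subgroupOf U
  have hfi : Fintype J := hfin.fintype
  have hidx : (⨅ s, f s).index ≤ p ^ J.ncard := by
    refine (Subgroup.index_iInf_le f).trans ?_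
    have h1 : ∀ s ∈ (Finset.univ : Finset J), (f s).index ≤ p := by
      intro s _
      have h2 := relIndex_Vs P hp2 hUB hU hQ hc (hJ s.2) (hle s s.2)
      have h3 : (Vs P U s.1).subgroupOf U ≤ f s :=
        fun u hu => mem_subgroupOf.2 (Vs_le_Ks P hp2 hUB hU hQ hc (hJ s.2) (hle s s.2) (mem_subgroupOf.1 hu))
      have h4 := Subgroup.index_dvd_of_le h3
      have h5 : ((Vs P U s.1).subgroupOf U).index = p := h2
      rw [h5] at h4
      exact Nat.le_of_dvd hp.out.pos h4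
    refine (Finset.prod_le_pow_card _ _ _ h1).trans ?_
    rw [Finset.card_univ, ← Nat.card_eq_fintype_card, Nat.card_coe_set_eq]
  -- it centralises `Q`
  have hbot : (⨅ s, f s) = ⊥ := by
    rw [eq_bot_iff]
    intro w hw
    rw [mem_bot]
    have hw' : ∀ w : U, w ∈ (⨅ s, f s) ↔ ∀ s ∈ J, (w : G) ∈ Ks P U s := by
      intro w
      rw [Subgroup.mem_iInf]
      exact ⟨fun h s hs => mem_subgroupOf.1 (h ⟨s, hs⟩), fun h s => mem_subgroupOf.2 (h s s.2)⟩
    -- the centraliser of `W` in `Q`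
    let C : Subgroup G :=
      { carrier := {q | q ∈ Q ∧ ∀ w : U, w ∈ (⨅ s, f s) → (w : G) * q = q * w}
        one_mem' := ⟨one_mem _, fun w _ => by rw [mul_one, one_mul]⟩
        mul_mem' := by
          rintro a b ⟨ha, ha'⟩ ⟨hb, hb'⟩
          refine ⟨mul_mem ha hb, fun w hw => ?_⟩
          rw [← mul_assoc, ha' w hw, mul_assoc, hb' w hw, mul_assoc]
        inv_mem' := by
          rintro a ⟨ha, ha'⟩
          refine ⟨inv_mem ha, fun w hw => ?_⟩
          have h1 := ha' w hw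
          calc (w : G) * a⁻¹ = a⁻¹ * (a * w) * a⁻¹ := by group
            _ = a⁻¹ * (w * a) * a⁻¹ := by rw [h1]
            _ = a⁻¹ * w := by group }
    have hCn : ∀ b ∈ P.B, ∀ q ∈ C, b * q * b⁻¹ ∈ C := by
      rintro b hb q ⟨hq, hq'⟩
      refine ⟨hQn.conj_mem q hq b, fun w hw => ?_⟩
      have h1 : b⁻¹ * (w : G) * b ∈ U := by
        have := hBU b⁻¹ (inv_mem hb) w w.2
        rwa [inv_inv] at this
      have h2 := hq' ⟨_, h1⟩ ((hw' _).2 fun s hs => by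
        have h3 := Ks_conj P hUB hS hU ((hw' w).1 hw s hs) (B_le_parabolic P {s} (inv_mem hb))
        rwa [inv_inv] at h3)
      have h2' : b⁻¹ * (w : G) * b * q = q * (b⁻¹ * (w : G) * b) := h2
      calc (w : G) * (b * q * b⁻¹) = b * (b⁻¹ * w * b * q) * b⁻¹ := by group
        _ = b * (q * (b⁻¹ * w * b)) * b⁻¹ := by rw [h2']
        _ = _ := by group
    -- `B C` contains the `P_s`
    have hBC : P.B ≤ normalizer (C : Set G) := by
      intro b hb
      rw [mem_normalizer_iff]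
      intro q
      refine ⟨hCn b hb q, fun h => ?_⟩
      have h1 := hCn b⁻¹ (inv_mem hb) _ h
      have e : b⁻¹ * (b * q * b⁻¹) * b⁻¹⁻¹ = q := by group
      rwa [e] at h1
    have hmul : ∀ x ∈ P.B ⊔ C, ∃ c ∈ C, ∃ b ∈ P.B, x = c * b := by
      intro x hx
      have h1 : P.B ⊔ C = C ⊔ P.B := sup_comm _ _
      rw [h1] at hx
      let N : Subgroup G :=
        { carrier := {x | ∃ c ∈ C, ∃ b ∈ P.B, x = c * b}
          one_mem' := ⟨1, one_mem _, 1, one_mem _, by rw [mul_one]⟩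
          mul_mem' := by
            rintro _ _ ⟨c, hc, b, hb, rfl⟩ ⟨c', hc', b', hb', rfl⟩
            exact ⟨c * (b * c' * b⁻¹), mul_mem hc (hCn b hb c' hc'), b * b', mul_mem hb hb', by group⟩
          inv_mem' := by
            rintro _ ⟨c, hc, b, hb, rfl⟩
            have h2 := hCn b⁻¹ (inv_mem hb) _ (inv_mem hc)
            exact ⟨_, h2, b⁻¹, inv_mem hb, by group⟩ }
      have h2 : C ⊔ P.B ≤ N :=
        sup_le (fun c hc => ⟨c, hc, 1, one_mem _, by rw [mul_one]⟩) (fun b hb => ⟨1, one_mem _, b, hb, by rw [one_mul]⟩)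
      exact h2 hx
    have hPs : ∀ s ∈ J, P.parabolic {s} ≤ P.B ⊔ C := by
      intro s hs g hg
      have h1 : g ∈ Q ⊔ P.B := by rw [sup_comm]; exact hle s hs hg
      rw [Subgroup.mem_sup_of_normal_left] at h1
      obtain ⟨q, hq, b, hb, rfl⟩ := h1
      have hqs : q ∈ P.parabolic {s} := by
        have h2 := mul_mem hg (inv_mem (B_le_parabolic P {s} hb))
        rwa [mul_inv_cancel_right] at h2
      refine mul_mem (mem_sup_right ⟨hq, fun w hw => ?_⟩) (mem_sup_left hb)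
      exact Ks_comm P hp2 hUB hS hU hQ ((hw' w).1 hw s hs) hq hqs
    have hPJ : P.B ⊔ Q ≤ P.B ⊔ C := by
      rw [hBQ]
      refine sup_le le_sup_left ((closure_le _).2 fun s hs => hPs s hs (mem_parabolic_self P s))
    have hw1 := hC w w.2 (fun q hq => by
      obtain ⟨c, hc', b, hb, e⟩ := hmul q (hPJ (mem_sup_right hq))
      have hbQ : b ∈ Q := by
        have e2 : b = c⁻¹ * q := by rw [e]; group
        rw [e2]
        exact mul_mem (inv_mem hc'.1) hq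
      have h1 := Q_inf_B P hp2 hBU hU hQ w.2 hbQ hb
      have h2 := hc'.2 w hw
      rw [e, ← mul_assoc, h2, mul_assoc, h1, mul_assoc])
    exact Subtype.ext hw1
  rw [hbot, Subgroup.index_bot] at hidx
  have h1 := (pow_ncard_le P hU hUB hc).trans hidx
  have h2 : P.S.ncard ≤ J.ncard := (Nat.pow_le_pow_iff_right hp.out.one_lt).1 h1
  have h3 : J = P.S := Set.eq_of_subset_of_ncard_le hJ h2 (Set.toFinite _)
  rw [hBQ, h3]
  unfold Cfsg.BNPair.parabolic
  exact sup_closure_eq_top P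

end Main

end Cfsg.Agent.H298.EO
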